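import Cfsg.Agent.PQ.Th.Grp
import Cfsg.Agent.Characters.Core

/-!
# PQ, box GT: the basis of irreducible characters of a tower of groups (helper46)

* `sng T l f hf` : the class function `f` of one group as an element of `T.V`; `exists_supp`;
* `boxGT : BoxGT`.
-/

set_option autoImplicit false
set_option linter.unusedSectionVars false

namespace Cfsg.Agent.PQ.Gt

open Module Cfsg Cfsg.Agent.PQ.Th Cfsg.Agent.Characters.Core
open scoped ComplexConjugate

attribute [local instance] GT.grp GT.fin

variable (T : GT)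

/-- extension by zero -/
noncomputable def ez0 (l : T.Λ) (f : T.G l → ℂ) : T.X → ℂ := Function.extend (Sigma.mk l) f 0

variable {T}

theorem ez0_same (l : T.Λ) (f : T.G l → ℂ) (g : T.G l) : ez0 T l f ⟨l, g⟩ = f g :=
  sigma_mk_injective.extend_apply f (0 : T.X → ℂ) g

theorem ez0_ne {l : T.Λ} (f : T.G l → ℂ) {x : T.X} (h : x.1 ≠ l) : ez0 T l f x = 0 :=
  Function.extend_apply' f (0 : T.X → ℂ) x fun ⟨_, e⟩ => h (e ▸ rfl)

variable (T)

/-- a class function of one group -/
noncomputable def sng (l : T.Λ) (f : T.G l → ℂ) (hf : IsClassFunction (T.G l) f) : T.V :=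
  ⟨ez0 T l f, fun l' g y => by
    by_cases h : l' = l
    · subst h
      simp only [ez0_same]
      exact hf g y
    · exact (ez0_ne f h).trans (ez0_ne f h).symm,
   T.rk l, fun x hx => ez0_ne f fun e => lt_irrefl _ (e ▸ hx)⟩

theorem fin_le (N : ℕ) : {l : T.Λ | T.rk l ≤ N}.Finite := by
  refine Set.Finite.of_finite_image (f := fun l => (T.rk l, T.df l))
    (((Set.finite_le_nat N).prod (Set.toFinite (Set.univ : Set (ZMod 4)))).subset ?_) fun a _ b _ h =>
      T.inj a b (Prod.mk.inj h).1 (Prod.mk.inj h).2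
  rintro _ ⟨l, hl, rfl⟩
  exact ⟨hl, trivial⟩

variable {T}

theorem res_sng (l : T.Λ) (f : T.G l → ℂ) (hf : IsClassFunction (T.G l) f) : T.res (sng T l f hf) l = f :=
  funext (ez0_same l f)

theorem res_sng_ne {l l' : T.Λ} (f : T.G l → ℂ) (hf : IsClassFunction (T.G l) f) (h : l' ≠ l) :
    T.res (sng T l f hf) l' = 0 := funext fun _ => ez0_ne f h

theorem res_cls (f : T.V) (l : T.Λ) : IsClassFunction (T.G l) (T.res f l) := f.2.1 l

theorem res_add (f f' : T.V) (l : T.Λ) : T.res (f + f') l = T.res f l + T.res f' l := rfl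

theorem res_smul (c : ℂ) (f : T.V) (l : T.Λ) : T.res (c • f) l = c • T.res f l := rfl

theorem ext_res {f f' : T.V} (h : ∀ l, T.res f l = T.res f' l) : f = f' :=
  Subtype.ext (funext fun x => congrFun (h x.1) x.2)

/-- the support is finite -/
theorem exists_supp (f : T.V) : ∃ s : Finset T.Λ, ∀ l ∉ s, T.res f l = 0 := by
  obtain ⟨N, hN⟩ := f.2.2
  exact ⟨(fin_le T N).toFinset, fun l hl => funext fun g =>
    hN ⟨l, g⟩ (not_le.1 fun h => hl ((fin_le T N).mem_toFinset.2 h))⟩

variable (T)

/-- the indices of the basis -/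
abbrev Ix : Type := Σ l, IrrCharacter (T.G l)

/-- finitely many irreducible characters -/
@[reducible] noncomputable def fI (l : T.Λ) : Fintype (IrrCharacter (T.G l)) := @Fintype.ofFinite _ finite_irr

attribute [local instance] fI

variable {T}

theorem co_supp {f : T.V} {s : Finset T.Λ} (hs : ∀ l ∉ s, T.res f l = 0) :
    (Function.support fun i : Ix T => classInner (T.res f i.1) i.2.1) ⊆
      ↑(s.sigma fun l => (Finset.univ : Finset (IrrCharacter (T.G l)))) :=
  fun i hi => Finset.mem_coe.2 (Finset.mem_sigma.2 ⟨by_contra fun h => hi (by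
    simp only [hs _ h, classInner_zero_left]), Finset.mem_univ _⟩)

variable (T)

/-- the coefficients -/
noncomputable def co : T.V →ₗ[ℂ] (Ix T →₀ ℂ) where
  toFun f := Finsupp.ofSupportFinite (fun i => classInner (T.res f i.1) i.2.1)
    ((exists_supp f).elim fun _ hs => (Finset.finite_toSet _).subset (co_supp hs))
  map_add' _ _ := Finsupp.ext fun _ => classInner_add_left _ _ _
  map_smul' _ _ := Finsupp.ext fun _ => classInner_smul_left _ _ _

/-- the basis vectors -/
noncomputable def bs (i : Ix T) : T.V := sng T i.1 i.2.1 (isIrr_isClassFunction i.2.2)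

variable {T}

theorem co_apply (f : T.V) (i : Ix T) : co T f i = classInner (T.res f i.1) i.2.1 := rfl

theorem co_bs (i : Ix T) : co T (bs T i) = Finsupp.single i 1 := by
  classical
  obtain ⟨l, χ⟩ := i
  refine Finsupp.ext fun ⟨l', ψ⟩ => ?_
  rw [co_apply, Finsupp.single_apply]
  by_cases h : l' = l
  · subst h
    rw [bs, res_sng, classInner_irr χ.2 ψ.2]
    simp only [Sigma.mk.injEq, heq_eq_eq, true_and, Subtype.ext_iff]
  · rw [bs, res_sng_ne _ _ h, classInner_zero_left, if_neg fun e => h (Sigma.mk.inj e).1.symm]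

theorem res_zero_iff (f : T.V) (l : T.Λ) : T.res f l = 0 ↔ ∀ χ, co T f ⟨l, χ⟩ = 0 := by
  refine ⟨fun h χ => by rw [co_apply, h, classInner_zero_left], fun h => ?_⟩
  rw [classFunction_eq_sum (res_cls f l)]
  exact Finset.sum_eq_zero fun χ _ => by rw [← co_apply f ⟨l, χ⟩, h, zero_smul]

theorem co_bij : Function.Bijective (co T) := by
  refine ⟨(injective_iff_map_eq_zero _).2 fun f h => ext_res fun l => (res_zero_iff f l).2 fun χ => by rw [h]; rfl,
    fun c => ?_⟩
  induction c using Finsupp.induction_linear with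
  | zero => exact ⟨0, map_zero _⟩
  | add a b ha hb =>
    obtain ⟨x, rfl⟩ := ha
    obtain ⟨y, rfl⟩ := hb
    exact ⟨x + y, map_add _ _ _⟩
  | single i c => exact ⟨c • bs T i, by rw [map_smul, co_bs, Finsupp.smul_single_one]⟩

variable (T)

/-- **the basis of irreducible characters** -/
@[reducible] noncomputable def hs : HS T.V where
  ι := Ix T
  b := Basis.ofRepr (LinearEquiv.ofBijective (co T) co_bij)
  rk i := T.rk i.1
  df i := T.df i.1

variable {T}

theorem hs_repr (f : T.V) : (hs T).b.repr f = co T f := rfl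

theorem hs_b (i : Ix T) : (hs T).b i = bs T i :=
  (hs T).b.repr.injective (((hs T).b.repr_self i).trans (co_bs i).symm)

theorem mem_sup (P : T.Λ → Prop) (u : T.V) :
    u ∈ (hs T).sup (fun i : Ix T => P i.1) ↔ ∀ x : T.X, ¬ P x.1 → u.1 x = 0 :=
  ⟨fun h x hx => congrFun ((res_zero_iff u x.1).2 fun χ => h ⟨x.1, χ⟩ hx) x.2,
    fun h i hi => (res_zero_iff u i.1).1 (funext fun g => h ⟨i.1, g⟩ hi) i.2⟩

theorem mod_hs : Mod T (hs T) where
  irr i := ⟨i.1, rfl, rfl, by rw [hs_b, bs, res_sng]; exact i.2.2, fun x hx => by rw [hs_b]; exact ez0_ne _ hx⟩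
  all l χ h := ⟨⟨l, χ, h⟩, rfl, rfl, by rw [hs_b, bs, res_sng]⟩
  ip u v := by
    classical
    obtain ⟨s, hs⟩ := exists_supp u
    rw [finsum_eq_sum_of_support_subset (s := s) _ fun l hl => by_contra fun h => hl (by
      simp only [hs l h, classInner_zero_left]), HS.ip, Finsupp.sum_of_support_subset
        (s := s.sigma fun l => (Finset.univ : Finset (IrrCharacter (T.G l)))) ((Gt.hs T).b.repr u)
        (fun i hi => co_supp hs (Finsupp.mem_support_iff.1 hi :))
        (fun i c => c * conj ((Gt.hs T).b.repr v i)) fun _ _ => zero_mul _]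
    exact (Finset.sum_sigma _ _ _).trans (Finset.sum_congr rfl fun l _ =>
      (classInner_eq_sum (res_cls u l) (res_cls v l)).symm)
  z u := by
    refine ⟨fun h l => isGeneralizedCharacter_iff.2 ?_, fun h i => ?_⟩
    · choose m hm using fun χ => h ⟨l, χ⟩
      refine ⟨m, (classFunction_eq_sum (res_cls u l)).trans (Finset.sum_congr rfl fun χ _ => ?_)⟩
      rw [← Int.cast_smul_eq_zsmul ℂ, ← hm]
      rfl
    · obtain ⟨m, hm⟩ := isGeneralizedCharacter_iff.1 (h i.1)
      exact ⟨m i.2, by rw [hs_repr, co_apply, hm, classInner_sum_zsmul_irr]⟩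
  gr u n := mem_sup (fun l => (T.rk l : ℤ) = n) u
  cmp u D := mem_sup (fun l => T.df l = D) u

/-- **box GT** -/
theorem boxGT : BoxGT := fun T => ⟨hs T, mod_hs⟩

end Cfsg.Agent.PQ.Gt
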